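import Mathlib

/-!
The derived subgroup of a group with a maximal subgroup of order 54 and index 28, under the conditions met in
`²G₂(3)`: it has order 504 and is simple.
-/

set_option autoImplicit false

namespace CfsgLib.ReeThree

open Subgroup

variable {G : Type*} [Group G] [Finite G]

theorem card_eq_index_mul {B N : Subgroup G} [N.Normal] (h : N ⊔ B = ⊤) :
    Nat.card N = B.index * Nat.card ↥(N ⊓ B) := by
  have h1 : (N ⊓ B).index = B.relIndex N * N.index := by
    rw [← inf_relIndex_left N B, relIndex_mul_index (inf_le_left : N ⊓ B ≤ N)]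
  have h2 : B.relIndex N = B.index := by
    have e1 : (N ⊓ B).index = N.relIndex B * B.index := by
      rw [← inf_relIndex_right N B, relIndex_mul_index (inf_le_right : N ⊓ B ≤ B)]
    rw [← relIndex_sup_left B N, h, relIndex_top_right, h1, mul_comm N.index] at e1
    exact Nat.eq_of_mul_eq_mul_right (Nat.pos_of_ne_zero N.index_ne_zero_of_finite) e1
  have h3 := card_mul_index (N ⊓ B)
  have h4 := card_mul_index N
  rw [h1, h2] at h3
  refine Nat.eq_of_mul_eq_mul_right (Nat.pos_of_ne_zero N.index_ne_zero_of_finite) ?_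
  rw [h4, ← h3]
  ring

theorem divisors_aux (k : ℕ) (h : k ∣ 18) (h2 : 2 ∣ k → 9 ∣ k) : k = 1 ∨ k = 3 ∨ k = 9 ∨ k = 18 := by
  have := Nat.le_of_dvd (by norm_num) h
  interval_cases k <;> omega

theorem seven_aux (n k : ℕ) (h : n ∣ 4 * k) (hn : n % 7 = 1) (hk : k = 1 ∨ k = 3) : n = 1 := by
  rcases hk with rfl | rfl <;>
  · have := Nat.le_of_dvd (by norm_num) h
    interval_cases n <;> omega

/-- A Sylow subgroup of a normal subgroup, alone in it, is normal in the group. -/
theorem normal_map_sylow {L : Subgroup G} [L.Normal] {p : ℕ} [Fact p.Prime] (h : Nat.card (Sylow p L) = 1)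
    (Q : Sylow p L) : ((Q : Subgroup L).map L.subtype).Normal := by
  haveI : (Q : Subgroup L).Normal := by
    rw [← normalizer_eq_top_iff, ← index_eq_one]
    exact (Sylow.card_eq_index_normalizer Q).symm.trans h
  haveI : (Q : Subgroup L).Characteristic := Sylow.characteristic_of_normal Q this
  infer_instance

variable {B : Subgroup G} (hidx : B.index = 28) (hB : Nat.card B = 54)
  (hmax : ∀ N : Subgroup G, N.Normal → N ≠ ⊥ → N ⊔ B = ⊤)
  (hself : ∀ x y : G, y ∈ B → y ≠ 1 → (∃ k : ℕ, orderOf y = 3 ^ k) → x * y * x⁻¹ ∈ B → x ∈ B)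
  (hinv : ∀ t ∈ B, orderOf t = 2 → ∀ N : Subgroup G, N.Normal → t ∈ N → 9 ∣ Nat.card ↥(N ⊓ B))
  (h18 : Nat.card ↥(commutator G ⊓ B) ∣ 18) (hne : commutator G ≠ ⊥)

include hidx hmax

theorem card_normal {N : Subgroup G} (hN : N.Normal) (hN1 : N ≠ ⊥) :
    Nat.card N = 28 * Nat.card ↥(N ⊓ B) := by
  rw [card_eq_index_mul (hmax N hN hN1), hidx]

theorem no_normal_seven {L : Subgroup G} [L.Normal] (hdvd : 7 ∣ Nat.card L)
    (h49 : ¬ 49 ∣ Nat.card L) : Nat.card (Sylow 7 L) ≠ 1 := by
  haveI : Fact (Nat.Prime 7) := ⟨by norm_num⟩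
  intro h1
  obtain ⟨Q⟩ := (inferInstance : Nonempty (Sylow 7 L))
  have hQ : Nat.card (Q : Subgroup L) = 7 := by
    rw [Q.card_eq_multiplicity]
    have : (Nat.card L).factorization 7 = 1 := by
      refine le_antisymm ?_ ((Nat.Prime.dvd_iff_one_le_factorization (by norm_num) Nat.card_pos.ne').1 hdvd)
      by_contra hc
      exact h49 ((Nat.Prime.pow_dvd_iff_le_factorization (p := 7) (k := 2) (by norm_num) Nat.card_pos.ne').2 (by omega))
    rw [this, pow_one]
  have hn := normal_map_sylow h1 Q
  have hc : Nat.card ↥((Q : Subgroup L).map L.subtype) = 7 := by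
    rw [← Nat.card_congr (equivMapOfInjective _ _ L.subtype_injective).toEquiv, hQ]
  have := card_normal hidx hmax hn (fun e => by rw [e, card_bot] at hc; norm_num at hc)
  omega

include hB hself hinv h18 in
theorem card_sub_derived {L : Subgroup G} (hLn : L.Normal) (hL1 : L ≠ ⊥) (hL : L ≤ commutator G) :
    Nat.card L = 504 := by
  haveI : Fact (Nat.Prime 7) := ⟨by norm_num⟩
  haveI : Fact (Nat.Prime 3) := ⟨by norm_num⟩
  haveI := hLn
  have hcard := card_normal hidx hmax hLn hL1
  set k := Nat.card ↥(L ⊓ B) with hk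
  have hk18 : k ∣ 18 := (card_dvd_of_le (inf_le_inf_right B hL)).trans h18
  have hkpos : 0 < k := Nat.card_pos
  have hk9 : 2 ∣ k → 9 ∣ k := fun h2 => by
    haveI : Fact (Nat.Prime 2) := ⟨Nat.prime_two⟩
    obtain ⟨t, ht⟩ := exists_prime_orderOf_dvd_card' 2 h2
    exact hinv t t.2.2 (by rw [orderOf_coe, ht]) L hLn t.2.1
  have hn7 : 7 ∣ Nat.card L := by rw [hcard]; exact Dvd.dvd.mul_right (by norm_num) k
  have h49 : ¬ 49 ∣ Nat.card L := by
    rw [hcard]
    have := Nat.le_of_dvd (by norm_num) hk18
    intro h
    have h2 : 49 ∣ 28 * 18 := h.trans (Nat.mul_dvd_mul_left 28 hk18)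
    norm_num at h2
  have hnot1 := no_normal_seven hidx hmax (L := L) hn7 h49
  have hk' : k = 1 ∨ k = 3 ∨ k = 9 ∨ k = 18 := divisors_aux k hk18 hk9
  obtain ⟨Q⟩ := (inferInstance : Nonempty (Sylow 7 L))
  have hmod := card_sylow_modEq_one 7 L
  have hQcard : Nat.card (Q : Subgroup L) = 7 := by
    rw [Q.card_eq_multiplicity]
    have : (Nat.card L).factorization 7 = 1 := by
      refine le_antisymm ?_ ((Nat.Prime.dvd_iff_one_le_factorization (by norm_num) Nat.card_pos.ne').1 hn7)
      by_contra hc
      exact h49 ((Nat.Prime.pow_dvd_iff_le_factorization (p := 7) (k := 2) (by norm_num) Nat.card_pos.ne').2 (by omega))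
    rw [this, pow_one]
  have hdiv : Nat.card (Sylow 7 L) ∣ 4 * k := by
    have h1 := Q.card_dvd_index
    have h2 := card_mul_index (Q : Subgroup L)
    rw [hQcard, hcard] at h2
    have : (Q : Subgroup L).index = 4 * k := by omega
    rwa [this] at h1
  have hsmall : k = 1 ∨ k = 3 → False := fun h => hnot1 (seven_aux _ k hdiv hmod h)
  rcases hk' with h | h | h | h
  · exact (hsmall (Or.inl h)).elim
  · exact (hsmall (Or.inr h)).elim
  · exfalso
    -- Burnside at the prime three
    set P₀ : Subgroup L := (L ⊓ B).subgroupOf L with hP₀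
    have hP₀card : Nat.card P₀ = 9 := by
      rw [hP₀, Nat.card_congr (subgroupOfEquivOfLe (inf_le_left : L ⊓ B ≤ L)).toEquiv]
      exact h
    have hfac : (Nat.card L).factorization 3 = 2 := by
      rw [hcard, h, show 28 * 9 = 3 ^ 2 * 28 by norm_num, Nat.factorization_mul (by norm_num) (by norm_num),
        Finsupp.add_apply, Nat.factorization_pow, Finsupp.smul_apply, Nat.Prime.factorization_self Nat.prime_three,
        Nat.factorization_eq_zero_of_not_dvd (show ¬ 3 ∣ 28 by norm_num)]
      rfl
    let P : Sylow 3 L := Sylow.ofCard P₀ (by rw [hP₀card, hfac]; norm_num)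
    have hPcoe : (P : Subgroup L) = P₀ := rfl
    haveI : IsMulCommutative P₀ := IsPGroup.isMulCommutative_of_card_eq_prime_sq (p := 3) (by rw [hP₀card]; norm_num)
    have hP : normalizer ((P : Subgroup L) : Set L) ≤ centralizer ((P : Subgroup L) : Set L) := by
      rw [hPcoe]
      intro x hx
      haveI : Nontrivial P₀ := Finite.one_lt_card_iff_nontrivial.1 (by rw [hP₀card]; norm_num)
      obtain ⟨y, hy⟩ := exists_ne (1 : P₀)
      have hxy := (mem_normalizer_iff.1 hx (y : L)).1 y.2
      have hyB : ((y : L) : G) ∈ B := (mem_subgroupOf.1 y.2).2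
      have hxB : (x : G) ∈ B := by
        refine hself (x : G) ((y : L) : G) hyB (fun e => hy (Subtype.ext (Subtype.ext e))) ?_
          (mem_subgroupOf.1 hxy).2
        obtain ⟨j, hj⟩ := (IsPGroup.iff_orderOf.1 (P.2) : _) ⟨(y : L), y.2⟩
        refine ⟨j, ?_⟩
        rw [← hj, orderOf_coe]
        exact (orderOf_coe (⟨(y : L), y.2⟩ : (P : Subgroup L))).symm ▸ rfl
      have hxP : x ∈ P₀ := mem_subgroupOf.2 ⟨x.2, hxB⟩
      exact fun z hz => congrArg Subtype.val (mul_comm' (⟨z, hz⟩ : P₀) ⟨x, hxP⟩)
    have hcompl := MonoidHom.ker_transferSylow_isComplement' P hP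
    set Kc := (MonoidHom.transferSylow P hP).ker with hKc
    have hKcard : Nat.card Kc = 28 := by
      have := hcompl.card_mul
      rw [hPcoe, hP₀card, hcard, h] at this
      omega
    obtain ⟨R⟩ := (inferInstance : Nonempty (Sylow 7 Kc))
    have hR7 : Nat.card (Sylow 7 Kc) = 1 := by
      have h1 := R.card_dvd_index
      have h2 := card_mul_index (R : Subgroup Kc)
      have hRc : Nat.card (R : Subgroup Kc) = 7 := by
        rw [R.card_eq_multiplicity, hKcard, show (28 : ℕ) = 7 ^ 1 * 4 by norm_num,
          Nat.factorization_mul (by norm_num) (by norm_num), Finsupp.add_apply, Nat.factorization_pow,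
          Finsupp.smul_apply, Nat.Prime.factorization_self (by norm_num),
          Nat.factorization_eq_zero_of_not_dvd (show ¬ 7 ∣ 4 by norm_num)]
        rfl
      rw [hRc, hKcard] at h2
      have h3 : (R : Subgroup Kc).index = 4 := by omega
      rw [h3] at h1
      have hm : Nat.card (Sylow 7 Kc) % 7 = 1 := card_sylow_modEq_one 7 Kc
      have := Nat.le_of_dvd (by norm_num) h1
      exact seven_aux _ 1 (by rw [mul_one]; exact h1) hm (Or.inl rfl)
    have hRn : ((R : Subgroup Kc).map Kc.subtype).Normal := normal_map_sylow hR7 R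
    -- a normal Sylow 7-subgroup of `L`
    refine hnot1 ?_
    have hRc : Nat.card ↥((R : Subgroup Kc).map Kc.subtype) = 7 ^ (Nat.card L).factorization 7 := by
      rw [← Nat.card_congr (equivMapOfInjective _ _ Kc.subtype_injective).toEquiv, R.card_eq_multiplicity, hKcard,
        hcard, h]
      congr 1
      rw [show (28 : ℕ) * 9 = 28 * 9 from rfl, Nat.factorization_mul (by norm_num) (by norm_num), Finsupp.add_apply,
        Nat.factorization_eq_zero_of_not_dvd (show ¬ 7 ∣ 9 by norm_num), add_zero]
    let S : Sylow 7 L := Sylow.ofCard _ hRc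
    have hSn : (S : Subgroup L).Normal := hRn
    haveI := Sylow.unique_of_normal S hSn
    exact Nat.card_unique
  · omega

include hB hself hinv h18 hne in
/-- The derived subgroup has order 504 and is simple. -/
theorem derived_simple : Nat.card ↥(commutator G) = 504 ∧ IsSimpleGroup ↥(commutator G) := by
  haveI : Fact (Nat.Prime 7) := ⟨by norm_num⟩
  set N := commutator G with hNdef
  have hcard : Nat.card N = 504 := card_sub_derived hidx hB hmax hself hinv h18 inferInstance hne le_rfl
  refine ⟨hcard, { toNontrivial := Finite.one_lt_card_iff_nontrivial.1 (by omega),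
                   eq_bot_or_eq_top_of_normal := fun M hM => ?_ }⟩
  haveI := hM
  by_cases h7 : 7 ∣ Nat.card M
  · right
    -- the subgroup generated by all Sylow 7-subgroups
    set T : Subgroup N := ⨆ Q : Sylow 7 N, (Q : Subgroup N) with hT
    haveI hTc : T.Characteristic := by
      rw [characteristic_iff_map_le]
      intro f
      rw [hT, Subgroup.map_iSup]
      refine iSup_le fun Q => ?_
      refine le_iSup_of_le (Q.comapOfInjective f.symm.toMonoidHom f.symm.injective
        (by rw [MonoidHom.range_eq_top.2 f.symm.surjective]; exact le_top)) ?_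
      intro x hx
      obtain ⟨y, hy, rfl⟩ := mem_map.1 hx
      show f.symm (f y) ∈ (Q : Subgroup N)
      rw [MulEquiv.symm_apply_apply]; exact hy
    have hTle : T ≤ M := by
      obtain ⟨R⟩ := (inferInstance : Nonempty (Sylow 7 M))
      refine iSup_le fun Q => ?_
      have h1 : Nat.card ↥((R : Subgroup M).map M.subtype) = 7 ^ (Nat.card N).factorization 7 := by
        rw [← Nat.card_congr (equivMapOfInjective _ _ M.subtype_injective).toEquiv, R.card_eq_multiplicity]
        congr 1
        refine le_antisymm ?_ ?_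
        · exact (Nat.factorization_le_iff_dvd Nat.card_pos.ne' Nat.card_pos.ne').2 (card_subgroup_dvd_card M) 7
        · have e : (Nat.card N).factorization 7 = 1 := by
            rw [hcard, show (504 : ℕ) = 7 ^ 1 * 72 by norm_num, Nat.factorization_mul (by norm_num) (by norm_num),
              Finsupp.add_apply, Nat.factorization_pow, Finsupp.smul_apply, Nat.Prime.factorization_self (by norm_num),
              Nat.factorization_eq_zero_of_not_dvd (show ¬ 7 ∣ 72 by norm_num)]
            rfl
          rw [e]
          exact (Nat.Prime.dvd_iff_one_le_factorization (by norm_num) Nat.card_pos.ne').1 h7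
      let R' : Sylow 7 N := Sylow.ofCard _ h1
      obtain ⟨g, rfl⟩ := MulAction.exists_smul_eq N R' Q
      intro x hx
      rw [Sylow.coe_subgroup_smul] at hx
      obtain ⟨y, hy, rfl⟩ := (mem_smul_pointwise_iff_exists _ _ _).1 hx
      exact hM.conj_mem y (map_subtype_le _ hy) g
    haveI : (T.map N.subtype).Normal := inferInstance
    have hT1 : T.map N.subtype ≠ ⊥ := by
      intro e
      obtain ⟨Q⟩ := (inferInstance : Nonempty (Sylow 7 N))
      have hQ : (Q : Subgroup N) ≤ ⊥ := by
        refine (le_iSup (fun Q : Sylow 7 N => (Q : Subgroup N)) Q).trans ?_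
        exact ((map_eq_bot_iff_of_injective _ N.subtype_injective).1 e).le
      exact Q.ne_bot_of_dvd_card (by rw [hcard]; norm_num) (le_bot_iff.1 hQ)
    have hTc' := card_sub_derived hidx hB hmax hself hinv h18 this hT1 (map_subtype_le T)
    rw [← Nat.card_congr (equivMapOfInjective _ _ N.subtype_injective).toEquiv, ← hcard] at hTc'
    exact top_le_iff.1 ((eq_top_of_card_eq T hTc').ge.trans hTle)
  · left
    by_contra hM1
    -- the product of the conjugates
    set Mb : Subgroup G := normalClosure ((M.map N.subtype : Subgroup G) : Set G) with hMb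
    have hle : Mb ≤ N := normalClosure_le_normal (by rintro _ ⟨x, -, rfl⟩; exact x.2)
    have hMb1 : Mb ≠ ⊥ := fun e => hM1 ((map_eq_bot_iff_of_injective _ N.subtype_injective).1
      (le_bot_iff.1 (e ▸ le_normalClosure)))
    have hMbc := card_sub_derived hidx hB hmax hself hinv h18 normalClosure_normal hMb1 hle
    -- it is a product of normal subgroups of order prime to seven
    have hsub : Mb.subgroupOf N ≤ ⨆ f : G, M.map (MulAut.conjNormal (H := N) f).toMonoidHom := by
      have h2 : Mb ≤ (⨆ f : G, M.map (MulAut.conjNormal (H := N) f).toMonoidHom).map N.subtype := by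
        rw [hMb, normalClosure, closure_le]
        intro x hx
        obtain ⟨y, hy, hyx⟩ := Group.mem_conjugatesOfSet_iff.1 hx
        obtain ⟨f, rfl⟩ := isConj_iff.1 hyx
        obtain ⟨z, hz, rfl⟩ := hy
        exact ⟨MulAut.conjNormal f z, mem_iSup_of_mem f (mem_map_of_mem _ hz), MulAut.conjNormal_apply f z⟩
      intro x hx
      obtain ⟨z, hz, hzx⟩ := h2 (mem_subgroupOf.1 hx)
      rwa [Subtype.ext hzx] at hz
    have hprime : ∀ s : Finset G, ¬ 7 ∣ Nat.card ↥(s.sup fun f => M.map (MulAut.conjNormal (H := N) f).toMonoidHom) ∧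
        (s.sup fun f => M.map (MulAut.conjNormal (H := N) f).toMonoidHom).Normal := by
      classical
      intro s
      induction s using Finset.induction with
      | empty => exact ⟨by simp, by rw [Finset.sup_empty]; infer_instance⟩
      | @insert f s hfs ih =>
        haveI := ih.2
        haveI : (M.map (MulAut.conjNormal (H := N) f).toMonoidHom).Normal :=
          Subgroup.Normal.map hM _ (MulAut.conjNormal (H := N) f).surjective
        rw [Finset.sup_insert]
        refine ⟨fun h => ?_, sup_normal _ _⟩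
        have h1 : ¬ 7 ∣ Nat.card ↥(M.map (MulAut.conjNormal (H := N) f).toMonoidHom) := by
          exact fun hc => h7 ((Nat.card_congr (equivMapOfInjective M _ (MulAut.conjNormal (H := N) f).injective).toEquiv).symm ▸ hc)
        set A := M.map (MulAut.conjNormal (H := N) f).toMonoidHom
        set C := s.sup fun f => M.map (MulAut.conjNormal (H := N) f).toMonoidHom
        have h2 := card_eq_index_mul (G := ↥(A ⊔ C)) (B := A.subgroupOf (A ⊔ C)) (N := C.subgroupOf (A ⊔ C)) (by
          rw [← subgroupOf_sup le_sup_right le_sup_left, sup_comm, subgroupOf_self])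
        have h3 := card_mul_index (A.subgroupOf (A ⊔ C))
        rw [Nat.card_congr (subgroupOfEquivOfLe (le_sup_left : A ≤ A ⊔ C)).toEquiv] at h3
        rw [← h3] at h
        rw [Nat.card_congr (subgroupOfEquivOfLe (le_sup_right : C ≤ A ⊔ C)).toEquiv] at h2
        rcases (Nat.Prime.dvd_mul (by norm_num)).1 h with h | h
        · exact h1 h
        · exact ih.1 (h2 ▸ Dvd.dvd.mul_right h _)
    haveI := Fintype.ofFinite G
    have hfin := (hprime Finset.univ).1
    rw [Finset.sup_univ_eq_iSup] at hfin
    refine hfin (dvd_trans ?_ (card_dvd_of_le hsub))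
    rw [Nat.card_congr (subgroupOfEquivOfLe hle).toEquiv, hMbc]
    norm_num

end CfsgLib.ReeThree
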