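import Cfsg.Agent.Lib.ReeThree.Abstract
import Cfsg.Agent.Lib.Twisted.ReeUnipotentLaw
import Cfsg.Agent.Lib.Twisted.ReeDouble
import Cfsg.Agent.Lib.Twisted.CoreTrivial
import Cfsg.Agent.Lib.Transfer.Fusion

/-!
`²G₂(3)`: the derived subgroup has order 504 and is simple.
-/

set_option autoImplicit false
set_option linter.unusedSectionVars false

namespace CfsgLib.ReeThree

open Cfsg.Lie
open CfsgLib.Twisted
open CfsgLib.Chevalley (auxG2 cert_G2 xG xG_zero torusHom coe_torusHom chi acts_torus)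
open scoped commutatorElement

variable {K : Type*} [Field K] [Fintype K] (hK : Fintype.card K = 3 ^ (2 * 0 + 1))

theorem roots_one {x : K} (hx : x ≠ 0) (hK : Fintype.card K = 3 ^ (2 * 0 + 1)) : x * x = 1 := by
  have := FiniteField.pow_card_sub_one_eq_one x hx
  rw [hK] at this
  simpa [sq] using this

theorem reeSorted_conj {t : GL chevG2.Idx K} {c : Fin chevG2.rank → Kˣ} (ht : t = torusHom chevG2 K c)
    (x a p d E F : K) :
    t * reeSorted x a p d E F * t⁻¹ = reeSorted (chi chevG2 g2b c * x) (chi chevG2 g2a c * a)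
      (chi chevG2 g2ab c * p) (chi chevG2 g2aab c * d) (chi chevG2 g2aaab c * E) (chi chevG2 g2aaabb c * F) := by
  have A : ∀ (r : ℕ) (s : K), r < 12 →
      t * xG cert_G2 r s * t⁻¹ = xG cert_G2 r ((chi chevG2 r c : Kˣ) * s) := fun r s hr => by
    rw [ht]
    exact (acts_torus cert_G2 c).conj (⟨r, hr⟩ : Fin chevG2.nroots) s
  simp only [reeSorted, wordG_cons, wordG_nil, mul_one]
  rw [← A g2b x (by decide), ← A g2a a (by decide), ← A g2ab p (by decide), ← A g2aab d (by decide),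
    ← A g2aaab E (by decide), ← A g2aaabb F (by decide)]
  group

include hK

/-- The two invariants of a unipotent element. -/
theorem exists_invariants : ∃ ψ τ : GL chevG2.Idx K → K,
    (∀ x ∈ twistedG2 K (3 ^ 0) ⊓ chevG2.posUnipotent K, ∀ y ∈ twistedG2 K (3 ^ 0) ⊓ chevG2.posUnipotent K,
      ψ (x * y) = ψ x + ψ y ∧ τ (x * y) = τ x + τ y) ∧
    (∀ x ∈ twistedG2 K (3 ^ 0) ⊓ chevG2.posUnipotent K, ∀ t, ∀ ht : t ∈ chevG2.diagonalSubgroup K ⊓ twistedG2 K (3 ^ 0),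
      ψ (t * x * t⁻¹) = ψ x ∧ (t ≠ 1 → τ (t * x * t⁻¹) = -τ x)) ∧
    (∀ x ∈ twistedG2 K (3 ^ 0) ⊓ chevG2.posUnipotent K, (x ^ 3 = 1 ↔ τ x = 0)) ∧
    (∃ x ∈ twistedG2 K (3 ^ 0) ⊓ chevG2.posUnipotent K, ψ x = 1) ∧
    (∃ x ∈ twistedG2 K (3 ^ 0) ⊓ chevG2.posUnipotent K, τ x = 1) := by
  classical
  let ψ : GL chevG2.Idx K → K := fun x => if h : ∃ t E F, ReeCoord x t E F then
    h.choose_spec.choose + h.choose ^ 2 else 0
  let τ : GL chevG2.Idx K → K := fun x => if h : ∃ t E F, ReeCoord x t E F then h.choose else 0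
  have hval : ∀ {x : GL chevG2.Idx K} {t E F : K}, ReeCoord x t E F → ψ x = E + t ^ 2 ∧ τ x = t := by
    intro x t E F h
    have hex : ∃ t E F, ReeCoord x t E F := ⟨t, E, F, h⟩
    obtain ⟨e1, e2, -⟩ := hex.choose_spec.choose_spec.choose_spec.unique h
    refine ⟨?_, ?_⟩
    · show (if h : ∃ t E F, ReeCoord x t E F then h.choose_spec.choose + h.choose ^ 2 else 0) = _
      rw [dif_pos hex, e2, e1]
    · show (if h : ∃ t E F, ReeCoord x t E F then h.choose else 0) = _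
      rw [dif_pos hex, e1]
  have h30 : ((3 : ℕ) : K) = 0 := natCast_char_zero (p := 3) (k := 2 * 0 + 1) (by norm_num) hK
  have h3 : (3 : K) = 0 := by simpa using h30
  have hcube : ∀ s : K, (s ^ 3 ^ 0) ^ 3 = s := fun s => by
    rw [pow_zero, pow_one]
    have := FiniteField.pow_card s
    rw [hK] at this
    simpa using this
  have hU : ∀ x ∈ twistedG2 K (3 ^ 0) ⊓ chevG2.posUnipotent K, ∃ s u v,
      x = CfsgLib.Twisted.wordG cert_G2 (reeWordU (3 ^ 0) s u v) :=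
    fun x hx => (mem_unipotent_g2 hK (g2Twist_isTwist hK) le_rfl x).1 hx
  have hsorted : ∀ x ∈ twistedG2 K (3 ^ 0) ⊓ chevG2.posUnipotent K, ∃ s c d E F,
      x = reeSorted s (s ^ 3 ^ 0) c d E F := by
    intro x hx
    obtain ⟨s, u, v, rfl⟩ := hU x hx
    exact ⟨s, _, _, _, _, (reeWordU_sorted hK s u v).1⟩
  refine ⟨ψ, τ, fun x hx y hy => ?_, fun x hx t ht => ?_, fun x hx => ?_, ?_, ?_⟩
  · obtain ⟨s, c, d, E, F, rfl⟩ := hsorted x hx
    obtain ⟨s', c', d', E', F', rfl⟩ := hsorted y hy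
    have h1 : ReeCoord (reeSorted s (s ^ 3 ^ 0) c d E F) s E F := ⟨_, _, _, rfl⟩
    have h2 : ReeCoord (reeSorted s' (s' ^ 3 ^ 0) c' d' E' F') s' E' F' := ⟨_, _, _, rfl⟩
    have h12 := ReeCoord.mul h30 (e := 3 ^ 0) (t := s) (E := E) (F := F) ⟨c, d, rfl⟩ h2
    rw [(hval h1).1, (hval h2).1, (hval h12).1, (hval h1).2, (hval h2).2, (hval h12).2, hcube]
    exact ⟨by linear_combination s * s' * h3, rfl⟩
  · obtain ⟨c, hgc, hfix⟩ := reeTorus_fixed hK ht
    set a : K := ((chi chevG2 7 c : Kˣ) : K) with hadef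
    have ha : a * a = 1 := roots_one (Units.ne_zero _) hK
    have hb : ((chi chevG2 6 c : Kˣ) : K) = a := by
      have := hfix 7 (by norm_num)
      rw [reeTorus_data.1.2.2.1] at this
      rw [← this, g2Twist, reeTorus_data.1.2.2.2.2.1, max_eq_left (by norm_num)]
      exact hcube a
    have h10 : ((chi chevG2 g2aaab c : Kˣ) : K) = 1 := by
      show ((chi chevG2 10 c : Kˣ) : K) = 1
      rw [(chi_ree c).1, Units.val_mul, Units.val_pow_eq_pow_val, hb, ← hadef]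
      linear_combination (a * a + 1) * ha
    obtain ⟨s, c', d', E, F, rfl⟩ := hsorted x hx
    have h1 : ReeCoord (reeSorted s (s ^ 3 ^ 0) c' d' E F) s E F := ⟨_, _, _, rfl⟩
    have h2 : ReeCoord (t * reeSorted s (s ^ 3 ^ 0) c' d' E F * t⁻¹) (a * s) E
        (((chi chevG2 g2aaabb c : Kˣ) : K) * F) := by
      refine ⟨((chi chevG2 g2a c : Kˣ) : K) * s ^ 3 ^ 0, ((chi chevG2 g2ab c : Kˣ) : K) * c', ((chi chevG2 g2aab c : Kˣ) : K) * d',
        (reeSorted_conj hgc _ _ _ _ _ _).trans ?_⟩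
      rw [show ((chi chevG2 g2b c : Kˣ) : K) = a from hb, h10, one_mul]
    rw [(hval h1).1, (hval h2).1, (hval h1).2, (hval h2).2]
    refine ⟨by linear_combination s ^ 2 * ha, fun hne => ?_⟩
    rcases mul_self_eq_one_iff.1 ha with e | e
    · refine absurd (reeTorus_eq_one hK ht ?_) hne
      rw [hgc, coe_torusHom, Matrix.diagonal_apply_eq]
      exact e
    · rw [e, neg_one_mul]
  · obtain ⟨s, u, v, rfl⟩ := hU x hx
    rw [reeWordU_pow_three_eq_one_iff hK, (hval (reeCoord_word hK s u v)).2]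
  · refine ⟨CfsgLib.Twisted.wordG cert_G2 (reeWordU (3 ^ 0) 0 1 0),
      (mem_unipotent_g2 hK (g2Twist_isTwist hK) le_rfl _).2 ⟨0, 1, 0, rfl⟩, ?_⟩
    rw [(hval (reeCoord_word hK 0 1 0)).1]
    simp
  · refine ⟨CfsgLib.Twisted.wordG cert_G2 (reeWordU (3 ^ 0) 1 0 0),
      (mem_unipotent_g2 hK (g2Twist_isTwist hK) le_rfl _).2 ⟨1, 0, 0, rfl⟩, ?_⟩
    exact (hval (reeCoord_word hK 1 0 0)).2

/-- The derived subgroup of `²G₂(3)`. -/
theorem ree_three_derived :
    Nat.card ↥(commutator ↥(twistedG2 K (3 ^ 0))) = 504 ∧ IsSimpleGroup ↥(commutator ↥(twistedG2 K (3 ^ 0))) := by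
  classical
  haveI : Fact (Nat.Prime 3) := ⟨Nat.prime_three⟩
  obtain ⟨s, hS⟩ := exists_isRankOne_ree hK
  obtain ⟨ψ, τ, hadd, hconj, hcube, ⟨x₁, hx₁U, hx₁⟩, ⟨x₂, hx₂U, hx₂⟩⟩ := exists_invariants hK
  set G := twistedG2 K (3 ^ 0) with hG
  set B := IsRankOne.borelIn chevG2 G with hBdef
  have hUcard : Nat.card ↥(G ⊓ chevG2.posUnipotent K) = 27 := by
    rw [hG, card_unipotent_ree hK]; norm_num
  have hTcard : Nat.card ↥(G ⊓ chevG2.diagonalSubgroup K) = 2 := by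
    rw [hG, inf_comm, card_reeTorus hK]; norm_num
  have hidx : B.index = 28 := by
    rw [Subgroup.index_eq_card, hBdef, hS.card_coset, hUcard]
  have hB : Nat.card B = 54 := by rw [hBdef, hS.card_borelIn, hUcard, hTcard]
  -- the torus
  have hT2 : ∀ t ∈ G ⊓ chevG2.diagonalSubgroup K, t * t = 1 := fun t ht => by
    have := congrArg Subtype.val (pow_card_eq_one' (x := (⟨t, ht⟩ : ↥(G ⊓ chevG2.diagonalSubgroup K))))
    rw [hTcard] at this
    simpa [sq] using this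
  have hTone : ∀ t ∈ G ⊓ chevG2.diagonalSubgroup K, ∀ t' ∈ G ⊓ chevG2.diagonalSubgroup K, t ≠ 1 → t' ≠ 1 → t = t' := by
    intro t ht t' ht' h h'
    obtain ⟨x, hx, huniq2⟩ := (Nat.card_eq_two_iff' (1 : ↥(G ⊓ chevG2.diagonalSubgroup K))).1 hTcard
    have e1 := huniq2 ⟨t, ht⟩ fun e => h (congrArg Subtype.val e)
    have e2 := huniq2 ⟨t', ht'⟩ fun e => h' (congrArg Subtype.val e)
    exact congrArg Subtype.val (e1.trans e2.symm)
  have hU27 : ∀ x ∈ G ⊓ chevG2.posUnipotent K, x ^ 27 = 1 := fun x hx => by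
    have := congrArg Subtype.val (pow_card_eq_one' (x := (⟨x, hx⟩ : ↥(G ⊓ chevG2.posUnipotent K))))
    rw [hUcard] at this
    simpa using this
  have hnormU : ∀ b ∈ chevG2.borelSubgroup K, b ∈ G → ∀ x ∈ G ⊓ chevG2.posUnipotent K,
      b * x * b⁻¹ ∈ G ⊓ chevG2.posUnipotent K := fun b hb hbG x hx =>
    ⟨Subgroup.mul_mem _ (Subgroup.mul_mem _ hbG hx.1) (Subgroup.inv_mem _ hbG), IsRankOne.conj_pos fullReeG2 hb hx.2⟩
  have hdec : ∀ y ∈ B, ∃ u t : GL chevG2.Idx K, u ∈ G ⊓ chevG2.posUnipotent K ∧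
      t ∈ G ⊓ chevG2.diagonalSubgroup K ∧ (y : GL chevG2.Idx K) = u * t := by
    intro y hy
    obtain ⟨u, t, hu, huU, htG, htT, e⟩ := hS.borel y y.2 hy.1
    exact ⟨u, t, ⟨hu, huU⟩, ⟨htG, htT⟩, e⟩
  have hodd : ∀ y ∈ B, (∃ k : ℕ, orderOf y = 3 ^ k) → (y : GL chevG2.Idx K) ∈ G ⊓ chevG2.posUnipotent K := by
    intro y hy ⟨k, hk⟩
    obtain ⟨u, t, hu, ht, e⟩ := hdec y hy
    have hsq : ((y * y : G) : GL chevG2.Idx K) ∈ G ⊓ chevG2.posUnipotent K := by
      rw [Subgroup.coe_mul, e, show u * t * (u * t) = u * (t * u * t⁻¹) * (t * t) by group, hT2 t ht, mul_one]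
      exact mul_mem hu (hnormU t (Subgroup.mem_sup_right ht.2) ht.1 u hu)
    obtain ⟨j, hj⟩ : ∃ j, 3 ^ k + 1 = 2 * j := ⟨(3 ^ k + 1) / 2, by
      have : 3 ^ k % 2 = 1 := by rw [Nat.pow_mod]; norm_num
      omega⟩
    have hy' : y = (y * y) ^ j := by
      rw [← sq, ← pow_mul, ← hj, pow_succ, ← hk, pow_orderOf_eq_one, one_mul]
    rw [hy', Subgroup.coe_pow]
    exact Subgroup.pow_mem _ hsq j
  have hmax : ∀ N : Subgroup G, N.Normal → N ≠ ⊥ → N ⊔ B = ⊤ := by
    intro N hN hN1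
    obtain ⟨g, hgN, hgB⟩ : ∃ g ∈ N, g ∉ B := by
      by_contra h
      push Not at h
      refine hN1 (le_bot_iff.1 ?_)
      rw [← twistedG2_core_eq_bot hK]
      haveI := hN
      exact Subgroup.normal_le_normalCore.2 h
    have hUB : ∀ (u : GL chevG2.Idx K) (hu : u ∈ G) (_ : u ∈ chevG2.posUnipotent K), (⟨u, hu⟩ : G) ∈ N ⊔ B :=
      fun u hu huU => Subgroup.mem_sup_right ⟨Subgroup.mem_sup_left huU, hu⟩
    have hbB : ∀ (b : GL chevG2.Idx K) (hb : b ∈ G) (_ : b ∈ chevG2.borelSubgroup K), (⟨b, hb⟩ : G) ∈ N ⊔ B :=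
      fun b hb hb' => Subgroup.mem_sup_right ⟨hb', hb⟩
    obtain ⟨u, b, hu, huU, hb, hbB', e⟩ := (hS.cover g g.2).resolve_left fun h => hgB ⟨h, g.2⟩
    have hs : (⟨s, hS.mem⟩ : G) ∈ N ⊔ B := by
      have : (⟨s, hS.mem⟩ : G) = (⟨u, hu⟩ : G)⁻¹ * g * (⟨b, hb⟩ : G)⁻¹ := by
        refine Subtype.ext ?_
        show s = u⁻¹ * (g : GL chevG2.Idx K) * b⁻¹
        rw [e]; group
      rw [this]
      exact mul_mem (mul_mem (inv_mem (hUB u hu huU)) (Subgroup.mem_sup_left hgN)) (inv_mem (hbB b hb hbB'))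
    refine eq_top_iff.2 fun x _ => ?_
    by_cases hx : (x : GL chevG2.Idx K) ∈ chevG2.borelSubgroup K
    · exact Subgroup.mem_sup_right ⟨hx, x.2⟩
    · obtain ⟨u', b', hu', huU', hb', hbB'', e'⟩ := (hS.cover x x.2).resolve_left hx
      have : x = (⟨u', hu'⟩ : G) * ⟨s, hS.mem⟩ * ⟨b', hb'⟩ := Subtype.ext e'
      rw [this]
      exact mul_mem (mul_mem (hUB u' hu' huU') hs) (hbB b' hb' hbB'')
  have hself : ∀ x y : G, y ∈ B → y ≠ 1 → (∃ k : ℕ, orderOf y = 3 ^ k) → x * y * x⁻¹ ∈ B → x ∈ B := by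
    intro x y hy hy1 hk hxy
    have h1 := hodd y hy hk
    have h2 := hodd _ hxy (by
      obtain ⟨k, hk⟩ := hk
      exact ⟨k, by rw [← hk, ← MulAut.conj_apply, MulEquiv.orderOf_eq]⟩)
    exact ⟨hS.mem_borel_of_conj_mem x.2 h1.2 (fun e => hy1 (Subtype.ext e)) h2.2, x.2⟩
  -- the involution of the torus
  obtain ⟨⟨a, ha⟩, ha1⟩ : ∃ a : ↥(G ⊓ chevG2.diagonalSubgroup K), a ≠ 1 := by
    haveI : Nontrivial ↥(G ⊓ chevG2.diagonalSubgroup K) := Finite.one_lt_card_iff_nontrivial.1 (by rw [hTcard]; norm_num)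
    exact exists_ne 1
  have ha1' : a ≠ 1 := fun e => ha1 (Subtype.ext e)
  set z : GL chevG2.Idx K := x₂ * (a * x₂⁻¹ * a⁻¹) with hz
  have hax : a * x₂⁻¹ * a⁻¹ ∈ G ⊓ chevG2.posUnipotent K :=
    hnormU a (Subgroup.mem_sup_right ha.2) ha.1 _ (inv_mem hx₂U)
  have hzU : z ∈ G ⊓ chevG2.posUnipotent K := mul_mem hx₂U hax
  have hτ1 : τ 1 = 0 := by
    have := (hadd 1 (one_mem _) 1 (one_mem _)).2
    rw [one_mul] at this
    exact left_eq_add.1 this
  have hτinv : τ x₂⁻¹ = -1 := by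
    have := (hadd x₂ hx₂U x₂⁻¹ (inv_mem hx₂U)).2
    rw [mul_inv_cancel, hτ1, hx₂] at this
    linear_combination -this
  have hτz : τ z ≠ 0 := by
    rw [hz, (hadd x₂ hx₂U _ hax).2, hx₂, (hconj _ (inv_mem hx₂U) a ⟨ha.2, ha.1⟩).2 ha1', hτinv, neg_neg]
    intro h
    have : ((3 : ℕ) : K) = 0 := natCast_char_zero (p := 3) (k := 2 * 0 + 1) (by norm_num) hK
    have h3 : (3 : K) = 0 := by simpa using this
    exact one_ne_zero (α := K) (by linear_combination h3 - h)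
  have hz9 : orderOf z = 9 := by
    have h3 : ¬ z ^ 3 ^ 1 = 1 := by rw [pow_one]; exact fun e => hτz ((hcube z hzU).1 e)
    have h9 : z ^ 3 ^ 2 = 1 := by
      have hz3 : z ^ 3 ∈ G ⊓ chevG2.posUnipotent K := Subgroup.pow_mem _ hzU 3
      rw [show (3 : ℕ) ^ 2 = 3 * 3 by norm_num, pow_mul, hcube _ hz3, show z ^ 3 = z * z * z by rw [pow_succ, sq],
        (hadd _ (mul_mem hzU hzU) _ hzU).2, (hadd _ hzU _ hzU).2]
      have : ((3 : ℕ) : K) = 0 := natCast_char_zero (p := 3) (k := 2 * 0 + 1) (by norm_num) hK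
      have h3 : (3 : K) = 0 := by simpa using this
      linear_combination τ z * h3
    simpa using orderOf_eq_prime_pow h3 h9
  set zG : G := ⟨z, hzU.1⟩
  set aG : G := ⟨a, ha.1⟩
  have hzeq : zG = ⟨x₂, hx₂U.1⟩ * aG * (⟨x₂, hx₂U.1⟩ : G)⁻¹ * aG⁻¹ := Subtype.ext (by
    show z = x₂ * a * x₂⁻¹ * a⁻¹
    rw [hz]; group)
  have hzB : zG ∈ B := ⟨Subgroup.mem_sup_left hzU.2, hzU.1⟩
  have hinv : ∀ t ∈ B, orderOf t = 2 → ∀ N : Subgroup G, N.Normal → t ∈ N → 9 ∣ Nat.card ↥(N ⊓ B) := by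
    intro t htB ht N hN htN
    obtain ⟨u, d, hu, hd, e⟩ := hdec t htB
    have htt : ((t : G) : GL chevG2.Idx K) * t = 1 := by
      have : t * t = 1 := by rw [← sq, ← ht, pow_orderOf_eq_one]
      exact congrArg Subtype.val this
    have hd1 : d ≠ 1 := by
      rintro rfl
      rw [mul_one] at e
      have h27 := hU27 u hu
      rw [e] at htt
      have hu1 : u = 1 := by
        calc u = u ^ 27 := by
              rw [show 27 = 2 * 13 + 1 from rfl, pow_succ, pow_mul, sq, htt, one_pow, one_mul]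
          _ = 1 := h27
      have : t = 1 := Subtype.ext (e.trans hu1)
      rw [this, orderOf_one] at ht
      norm_num at ht
    obtain rfl := hTone d hd a ha hd1 ha1'
    have hdd : d * d = 1 := hT2 d hd
    have hdinv : d⁻¹ = d := inv_eq_of_mul_eq_one_right hdd
    have hdu : d * u * d⁻¹ = u⁻¹ := by
      rw [e] at htt
      rw [hdinv]
      exact eq_inv_of_mul_eq_one_right (by rw [← htt]; simp only [mul_assoc])
    set w := u ^ 14
    have hw : w * w = u := by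
      rw [← pow_add, show 14 + 14 = 27 + 1 from rfl, pow_succ, hU27 u hu, one_mul]
    have hdw : d * w * d⁻¹ = w⁻¹ := by
      rw [show d * w * d⁻¹ = (d * u * d⁻¹) ^ 14 from conj_pow.symm, hdu, inv_pow]
    have hcon : aG = (⟨w, Subgroup.pow_mem _ hu.1 14⟩ : G)⁻¹ * t * ⟨w, Subgroup.pow_mem _ hu.1 14⟩ := by
      refine Subtype.ext ?_
      show d = w⁻¹ * (t : GL chevG2.Idx K) * w
      rw [e, ← hw]
      calc d = w * (d * w * d⁻¹) * d := by rw [hdw, mul_inv_cancel, one_mul]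
        _ = w⁻¹ * (w * w * d) * w * d⁻¹ * d := by group
        _ = _ := by group
    have haN : aG ∈ N := by
      rw [hcon]
      simpa using hN.conj_mem t htN (⟨w, Subgroup.pow_mem _ hu.1 14⟩ : G)⁻¹
    have hzN : zG ∈ N := by
      rw [hzeq]
      exact mul_mem (hN.conj_mem aG haN _) (inv_mem haN)
    rw [← hz9, show orderOf z = orderOf zG from (Subgroup.orderOf_coe zG)]
    exact Subgroup.orderOf_dvd_natCard _ ⟨hzN, hzB⟩
  -- the homomorphism on the Borel subgroup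
  choose uP tP hu ht he using fun y : B => hdec y y.2
  have huniq : ∀ {u t u' t' : GL chevG2.Idx K}, u ∈ G ⊓ chevG2.posUnipotent K → t ∈ G ⊓ chevG2.diagonalSubgroup K →
      u' ∈ G ⊓ chevG2.posUnipotent K → t' ∈ G ⊓ chevG2.diagonalSubgroup K → u * t = u' * t' → u = u' := by
    intro u t u' t' hu ht hu' ht' e
    refine inv_mul_eq_one.1 (CfsgLib.Chevalley.eq_one_of_mem_pos_diagonal fullReeG2 (mul_mem (inv_mem hu.2) hu'.2) ?_)
    rw [show u⁻¹ * u' = t * t'⁻¹ by rw [eq_mul_inv_iff_mul_eq, mul_assoc, ← e, inv_mul_cancel_left]]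
    exact mul_mem ht.2 (inv_mem ht'.2)
  let χ : B →* Multiplicative K := MonoidHom.mk' (fun y => Multiplicative.ofAdd (ψ (uP y))) fun y y' => by
    rw [← ofAdd_add]
    congr 1
    have hc : tP y * uP y' * (tP y)⁻¹ ∈ G ⊓ chevG2.posUnipotent K :=
      hnormU _ (Subgroup.mem_sup_right (ht y).2) (ht y).1 _ (hu y')
    have e : uP (y * y') = uP y * (tP y * uP y' * (tP y)⁻¹) :=
      huniq (hu _) (ht _) (mul_mem (hu y) hc) (mul_mem (ht y) (ht y')) (by
        rw [← he (y * y')]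
        show ((y : G) : GL chevG2.Idx K) * ((y' : G) : GL chevG2.Idx K) = _
        rw [he y, he y']; group)
    rw [e, (hadd _ (hu y) _ hc).1, (hconj _ (hu y') _ ⟨(ht y).2, (ht y).1⟩).1]
  obtain ⟨S, hmemS⟩ := exists_sylow_ree hK
  have hSB : (S : Subgroup G) ≤ B := fun x hx => ⟨Subgroup.mem_sup_left ((hmemS x).1 hx), x.2⟩
  have hfus : commutator G ⊓ (S : Subgroup G) = ⁅B, B⁆ ⊓ (S : Subgroup G) := by
    refine CfsgLib.Transfer.commutator_inf_eq_of_control S hSB fun x hx g hg => ?_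
    rcases eq_or_ne x 1 with rfl | hx1
    · exact ⟨1, one_mem _, by simp⟩
    · exact ⟨g, ⟨hS.mem_borel_of_conj_mem g.2 ((hmemS x).1 hx) (fun e => hx1 (Subtype.ext e)) ((hmemS _).1 hg), g.2⟩, rfl⟩
  have h18 : Nat.card ↥(commutator G ⊓ B) ∣ 18 := by
    set C := commutator G ⊓ B
    have hdvd : Nat.card C ∣ 54 := hB ▸ Subgroup.card_dvd_of_le inf_le_right
    by_contra h
    have h27 : 27 ∣ Nat.card C := by
      have := Nat.le_of_dvd (by norm_num) hdvd
      interval_cases hC : Nat.card C <;> omega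
    have hidx2 : (C.subgroupOf B).index = 1 ∨ (C.subgroupOf B).index = 2 := by
      have h2 := Subgroup.card_mul_index (C.subgroupOf B)
      rw [Nat.card_congr (Subgroup.subgroupOfEquivOfLe (inf_le_right : C ≤ B)).toEquiv, hB] at h2
      have hc27 : Nat.card C = 27 ∨ Nat.card C = 54 := by
        obtain ⟨j, hj⟩ := h27
        have := Nat.le_of_dvd (by norm_num) hdvd
        have : 0 < Nat.card C := Nat.card_pos
        omega
      rcases hc27 with h | h <;> rw [h] at h2 <;> omega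
    set x1G : G := ⟨x₁, hx₁U.1⟩
    have hx1S : x1G ∈ S := (hmemS x1G).2 hx₁U.2
    set y : B := ⟨x1G, hSB hx1S⟩
    have hyy : (y ^ 14) * (y ^ 14) = y := by
      rw [← pow_add, show 14 + 14 = 27 + 1 from rfl, pow_succ]
      have : y ^ 27 = 1 := Subtype.ext (Subtype.ext (hU27 x₁ hx₁U))
      rw [this, one_mul]
    have hyC : y ∈ C.subgroupOf B := by
      rcases hidx2 with h2 | h2
      · rw [Subgroup.index_eq_one.1 h2]; trivial
      · rw [← hyy]; exact Subgroup.mul_self_mem_of_index_two h2 _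
    have hmem : x1G ∈ ⁅B, B⁆ := by
      have : x1G ∈ commutator G ⊓ (S : Subgroup G) := ⟨(Subgroup.mem_subgroupOf.1 hyC).1, hx1S⟩
      rw [hfus] at this
      exact this.1
    rw [← Subgroup.map_subtype_commutator] at hmem
    obtain ⟨y', hy', hyeq⟩ := hmem
    obtain rfl : y' = y := Subtype.ext hyeq
    have h1 : χ y = 1 := Abelianization.commutator_subset_ker χ hy'
    have h2 : uP y = x₁ := huniq (hu y) (ht y) hx₁U (one_mem _) (by rw [mul_one, ← he y])
    have h3 : ψ x₁ = 0 := by rw [← h2]; exact Multiplicative.ofAdd.injective h1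
    exact one_ne_zero (hx₁.symm.trans h3)
  have hne : commutator G ≠ ⊥ := by
    intro e
    have h1 : zG ∈ commutator G := by
      rw [hzeq, ← commutatorElement_def]
      exact Subgroup.commutator_mem_commutator (Subgroup.mem_top _) (Subgroup.mem_top _)
    rw [e, Subgroup.mem_bot] at h1
    have h2 : z = 1 := congrArg Subtype.val h1
    rw [h2, orderOf_one] at hz9
    norm_num at hz9
  exact derived_simple hidx hB hmax hself hinv h18 hne

end CfsgLib.ReeThree
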